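import Cfsg.Agent.H22.StarOrth
import Cfsg.Agent.H31.TwoChar.RankOneSmall
import Cfsg.Agent.H40.Dihedral.BasicForm
import Cfsg.Agent.H43.CharTools

/-!
# The exceptional block with five characters and defect four does not exist

A block of 2-defect four with one irreducible Brauer character, five characters and the column
`(1 + √2, 1, 1 - √2, 0, -1)` in a section of an element whose block has cyclic defect group of
order eight would have a basic algebra of dimension sixteen with five-dimensional centre.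
-/

set_option autoImplicit false
set_option maxHeartbeats 1000000

namespace Cfsg.Agent.H40.Dihedral

open Cfsg Module
open Cfsg.Agent.H22 (CZ sec)
open Cfsg.Agent.H41 (ResField localRing res)
open Cfsg.Agent.H31.TwoChar (comm finrank_quot_comm_le finrank_center_le finrank_blockAlg
  card_simple_quotients_le card_dvd_finrank_range)
open scoped ComplexConjugate

theorem exists_odd_ratio {m k : ℕ} (hm : m ≠ 0) (hk : k ≠ 0)
    (h : m.factorization 2 = k.factorization 2) :
    ∃ A B : ℕ, ¬ 2 ∣ A ∧ ¬ 2 ∣ B ∧ m * B = k * A := by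
  refine ⟨m / 2 ^ m.factorization 2, k / 2 ^ k.factorization 2,
    Nat.not_dvd_ordCompl Nat.prime_two hm, Nat.not_dvd_ordCompl Nat.prime_two hk, ?_⟩
  calc m * (k / 2 ^ k.factorization 2)
      = (2 ^ m.factorization 2 * (m / 2 ^ m.factorization 2)) * (k / 2 ^ k.factorization 2) := by
        rw [Nat.ordProj_mul_ordCompl_eq_self]
    _ = (2 ^ k.factorization 2 * (k / 2 ^ k.factorization 2)) * (m / 2 ^ m.factorization 2) := by
        rw [h]; ring
    _ = _ := by rw [Nat.ordProj_mul_ordCompl_eq_self]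

theorem res_odd {M : Ideal Cfsg.AlgInt} [M.IsMaximal] [CharP (ResField M) 2] {A : ℕ}
    (hA : ¬ 2 ∣ A) : res M (A : localRing M) = 1 := by
  obtain ⟨m, rfl⟩ : Odd A := Nat.odd_iff.2 (Nat.two_dvd_ne_zero.1 hA)
  rw [map_natCast, Nat.cast_add, Nat.cast_mul, Nat.cast_one, show ((2 : ℕ) : ResField M) = 0 from
    CharP.cast_eq_zero _ 2, zero_mul, zero_add]

section

variable {G : Type*} [Group G] [Fintype G] {M : Ideal Cfsg.AlgInt} [M.IsMaximal]

open scoped Classical in
/-- The central element carried by a character on the section of `σ`. -/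
theorem exists_sectionSum (σ : G) {j : ℕ} (hσ : orderOf σ = 2 ^ j) (ψ : IrrCharacter (CZ σ)) :
    ∃ Z : H41.groupAlgCenter (localRing M) G, ∀ χ : IrrCharacter G,
      H41.omega χ (H41.incl M Z) = (Nat.card G : ℂ) / Nat.card (CZ σ) *
        (∑ t ∈ Finset.univ.filter (fun t : CZ σ => IsPRegular 2 t),
          sec σ (χ : G → ℂ) t * conj ((ψ : CZ σ → ℂ) t)) / (χ : G → ℂ) 1 := by
  have : Fact (Nat.Prime 2) := ⟨Nat.prime_two⟩
  set R := Finset.univ.filter (fun t : CZ σ => IsPRegular 2 t) with hR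
  set W : G → ℂ := fun g => ∑ t ∈ R, if σ * (t : G) = g then conj ((ψ : CZ σ → ℂ) t) else 0 with hW
  set w : G → ℂ := fun g => (Nat.card (CZ σ) : ℂ)⁻¹ * ∑ x : G, W (x * g * x⁻¹) with hw
  have hWz : ∀ g, W g ≠ 0 → ∃ t ∈ R, σ * (t : G) = g ∧ W g = conj ((ψ : CZ σ → ℂ) t) := by
    intro g hg
    obtain ⟨t, ht, hne⟩ := Finset.exists_ne_zero_of_sum_ne_zero hg
    have hte : σ * (t : G) = g := by
      by_contra h
      exact hne (if_neg h)
    refine ⟨t, ht, hte, ?_⟩
    simp only [hW]
    rw [Finset.sum_eq_single t (fun s _ hs => if_neg fun h => hs (Subtype.ext (mul_left_cancel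
      (h.trans hte.symm)))) (fun h => absurd ht h), if_pos hte]
  have hWt : ∀ t ∈ R, W (σ * (t : G)) = conj ((ψ : CZ σ → ℂ) t) := by
    intro t ht
    simp only [hW]
    rw [Finset.sum_eq_single t (fun s _ hs => if_neg fun h => hs (Subtype.ext (mul_left_cancel h)))
      (fun h => absurd ht h), if_pos rfl]
  have hpp : ∀ t ∈ R, H22.pp 2 (σ * (t : G)) = σ := fun t ht =>
    H22.pp_eq (H22.isPPart_mul_regular hσ t (Finset.mem_filter.1 ht).2)
  have hint : ∀ g, IsIntegral ℤ (w g) := by
    intro g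
    by_cases hg : ∃ x, W (x * g * x⁻¹) ≠ 0
    · obtain ⟨x₀, hx₀⟩ := hg
      obtain ⟨t, ht, hte, hval⟩ := hWz _ hx₀
      have hsum : ∑ x : G, W (x * g * x⁻¹) = (Nat.card (CZ σ) : ℂ) * conj ((ψ : CZ σ → ℂ) t) := by
        calc ∑ x : G, W (x * g * x⁻¹) = ∑ x : G, W (x * (σ * (t : G)) * x⁻¹) := by
              refine (Fintype.sum_equiv (Equiv.mulRight x₀) _ _ fun x => ?_).symm
              simp only [Equiv.coe_mulRight, hte]
              congr 1
              group
          _ = ∑ x : G, if x ∈ CZ σ then conj ((ψ : CZ σ → ℂ) t) else 0 := by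
              refine Finset.sum_congr rfl fun x _ => ?_
              by_cases hx : x ∈ CZ σ
              · rw [if_pos hx]
                have h1 : (⟨x, hx⟩ * t * ⟨x, hx⟩⁻¹ : CZ σ) ∈ R := by
                  refine Finset.mem_filter.2 ⟨Finset.mem_univ _, ?_⟩
                  unfold IsPRegular
                  rw [← MulAut.conj_apply, MulEquiv.orderOf_eq]
                  exact (Finset.mem_filter.1 ht).2
                rw [show x * (σ * (t : G)) * x⁻¹ =
                  σ * ((⟨x, hx⟩ * t * ⟨x, hx⟩⁻¹ : CZ σ) : G) by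
                    push_cast
                    rw [← mul_assoc, ← H22.comm_of_mem_CZ hx]
                    group, hWt _ h1]
                congr 1
                exact H26.irr_conj ψ t _
              · rw [if_neg hx]
                by_contra hne
                obtain ⟨s, hs, hse, -⟩ := hWz _ hne
                apply hx
                have h1 := H22.pp_conj 2 x (σ * (t : G))
                rw [← hse, hpp s hs, hpp t ht] at h1
                rw [CZ, H40.centralizer_zpowers_eq, Subgroup.mem_centralizer_singleton_iff]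
                calc x * σ = x * σ * x⁻¹ * x := by group
                  _ = σ * x := by rw [← h1]
          _ = _ := by
              rw [Finset.sum_ite, Finset.sum_const_zero, add_zero, Finset.sum_const, nsmul_eq_mul]
              congr 2
              rw [← Fintype.card_subtype, Nat.card_eq_fintype_card]
      rw [hw]
      simp only [hsum]
      rw [← mul_assoc, inv_mul_cancel₀ (Nat.cast_ne_zero.2 Nat.card_pos.ne'), one_mul]
      exact (H43.irr_isIntegral ψ t).map (starRingEnd ℂ).toIntAlgHom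
    · push Not at hg
      simp only [hw, hg, Finset.sum_const_zero, mul_zero]
      exact isIntegral_zero
  have hcl : ∀ g h : G, w (h * g * h⁻¹) = w g := by
    intro g h
    simp only [hw]
    congr 1
    refine Fintype.sum_equiv (Equiv.mulRight h) _ _ fun x => ?_
    simp only [Equiv.coe_mulRight]
    congr 1
    group
  refine ⟨H41.centerOfFun (fun g => ⟨w g, H41.isIntegral_mem_localRing (hint g)⟩)
    (fun g h => Subtype.ext (hcl g h)), fun χ => ?_⟩
  rw [H41.omega_apply]
  congr 1
  simp only [H41.coeff_incl, H41.coeff_centerOfFun, hw, Finset.mul_sum, Finset.sum_mul]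
  rw [Finset.sum_comm]
  have hrow : ∀ x : G, ∑ g : G, (Nat.card (CZ σ) : ℂ)⁻¹ * W (x * g * x⁻¹) * (χ : G → ℂ) g =
      (Nat.card (CZ σ) : ℂ)⁻¹ * ∑ t ∈ R, sec σ (χ : G → ℂ) t * conj ((ψ : CZ σ → ℂ) t) := by
    intro x
    rw [Finset.mul_sum]
    calc ∑ g : G, (Nat.card (CZ σ) : ℂ)⁻¹ * W (x * g * x⁻¹) * (χ : G → ℂ) g
        = ∑ g : G, (Nat.card (CZ σ) : ℂ)⁻¹ * W g * (χ : G → ℂ) g :=
          Fintype.sum_equiv (MulAut.conj x).toEquiv _ _ fun g => by
            simp [H26.irr_conj]
      _ = _ := by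
          simp only [hW, Finset.mul_sum, Finset.sum_mul, mul_ite, ite_mul, mul_zero, zero_mul]
          rw [Finset.sum_comm]
          refine Finset.sum_congr rfl fun t _ => ?_
          rw [Finset.sum_ite_eq, if_pos (Finset.mem_univ _)]
          show _ * (χ : G → ℂ) (σ * (t : G)) = _ * ((χ : G → ℂ) (σ * (t : G)) * _)
          ring
  rw [Finset.sum_congr rfl fun x _ => hrow x, Finset.sum_const, Finset.card_univ, nsmul_eq_mul,
    ← Nat.card_eq_fintype_card, Finset.mul_sum, Finset.mul_sum]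
  exact Finset.sum_congr rfl fun t _ => by ring

open scoped Classical in
/-- A central element from its central characters. -/
theorem coeff_eq_sum_omega [Fintype (IrrCharacter G)] (z : H41.groupAlgCenter ℂ G) (g : G) :
    (z : MonoidAlgebra ℂ G).coeff g = (Nat.card G : ℂ)⁻¹ *
      ∑ χ : IrrCharacter G, H41.omega χ z * ((χ : G → ℂ) 1 * conj ((χ : G → ℂ) g)) := by
  have hz : z = ∑ χ : IrrCharacter G, H41.omega χ z • H41.blockIdem {χ} := by
    refine H41.center_ext_omega fun ψ => ?_
    simp [H41.omega_blockIdem, eq_comm]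
  conv_lhs => rw [hz]
  rw [AddSubmonoidClass.coe_finsetSum, MonoidAlgebra.coeff_sum, Finsupp.finsetSum_apply,
    Finset.mul_sum]
  refine Finset.sum_congr rfl fun χ _ => ?_
  rw [Subalgebra.coe_smul, MonoidAlgebra.coeff_smul, Finsupp.smul_apply, smul_eq_mul,
    H41.coeff_blockIdem, H41.blockCoeff_eq_sum]
  simp only [Set.mem_singleton_iff, Finset.filter_eq', Finset.mem_univ, if_true,
    Finset.sum_singleton]
  ring

end
open scoped Classical in
/-- The exceptional configuration is impossible. -/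
theorem false_of_small {G : Type*} [Group G] [Fintype G] {M : Ideal Cfsg.AlgInt}
    (hM : IsPModular 2 M) {B : Set (IrrCharacter G)} (hB : IsPBlock M B)
    (hdef : blockDefect 2 B = 4) (hl : blockRank 2 B = 1) (hk : Nat.card B ≤ 5)
    (σ : G) {j : ℕ} (hσ : orderOf σ = 2 ^ j) (ψ : IrrCharacter (CZ σ))
    (hψ : (8 * charDegree (ψ : CZ σ → ℂ)).factorization 2 = (Nat.card (CZ σ)).factorization 2)
    (D : IrrCharacter G → ℂ) (hint : ∀ χ ∈ B, IsIntegral ℤ (D χ))
    (hreal : ∀ χ ∈ B, starRingEnd ℂ (D χ) = D χ)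
    (hsum : ∀ χ ∈ B, ∑ t ∈ Finset.univ.filter (fun t : CZ σ => IsPRegular 2 t),
      sec σ (χ : G → ℂ) t * starRingEnd ℂ ((ψ : CZ σ → ℂ) t) = (Nat.card (CZ σ) : ℂ) / 8 * D χ)
    (χ0 : IrrCharacter G) (hχ0 : χ0 ∈ B) (h0 : blockHeight 2 B (χ0 : G → ℂ) = 0)
    (h2 : ∑ χ ∈ H42.blockFinset B, D χ ^ 2 = 8)
    (h3 : 3 * ∑ χ ∈ H42.blockFinset B, (χ0 : G → ℂ) 1 / (χ : G → ℂ) 1 * D χ ^ 3 = 44 ∨
      3 * ∑ χ ∈ H42.blockFinset B, (χ0 : G → ℂ) 1 / (χ : G → ℂ) 1 * D χ ^ 3 = -44) : False := by
  have hp : Fact (Nat.Prime 2) := ⟨Nat.prime_two⟩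
  have := hM.2.1
  have := H43.D1.isAlgClosed_resField M
  have := H41.IsPModular.charP hM
  have := H41.finite_irrCharacter (G := G)
  have := Fintype.ofFinite (IrrCharacter G)
  have : FiniteDimensional (ResField M) (MonoidAlgebra (ResField M) G) :=
    Module.Finite.of_basis (MonoidAlgebra.basis G (ResField M))
  have : CharP (MonoidAlgebra (ResField M) G) 2 :=
    charP_of_injective_algebraMap (algebraMap (ResField M) (MonoidAlgebra (ResField M) G)).injective 2
  set R := Finset.univ.filter (fun t : CZ σ => IsPRegular 2 t) with hR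
  set x₀ := charDegree (χ0 : G → ℂ) with hx₀
  set y₀ := charDegree (ψ : CZ σ → ℂ) with hy₀
  have hx0 : x₀ ≠ 0 := (H42.charDegree_pos χ0).ne'
  have hy0 : y₀ ≠ 0 := (H42.charDegree_pos ψ).ne'
  -- odd ratios
  obtain ⟨A, Bn, hA, hBn, hGA⟩ := exists_odd_ratio (m := Nat.card G) (k := 16 * x₀)
    Nat.card_pos.ne' (by omega) (by
      rw [Nat.factorization_mul (by norm_num) hx0, Finsupp.add_apply,
        show (16 : ℕ) = 2 ^ 4 by norm_num, Nat.factorization_pow_self Nat.prime_two]
      have hle : sInf ((fun χ : IrrCharacter G => (charDegree (χ : G → ℂ)).factorization 2) '' B) ≤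
          x₀.factorization 2 := Nat.sInf_le ⟨χ0, hχ0, rfl⟩
      have e : (charDegree (χ0 : G → ℂ)).factorization 2 = x₀.factorization 2 := rfl
      unfold blockHeight at h0
      unfold blockDefect at hdef
      omega)
  obtain ⟨A', B', hA', hB', hCA⟩ := exists_odd_ratio (m := Nat.card (CZ σ)) (k := 8 * y₀)
    Nat.card_pos.ne' (by omega) hψ.symm
  have hGA' : (Nat.card G : ℂ) * Bn = 16 * (χ0 : G → ℂ) 1 * A := by
    rw [H42.irr_one_eq]; exact_mod_cast hGA
  have hCA' : (Nat.card (CZ σ) : ℂ) * B' = 8 * (ψ : CZ σ → ℂ) 1 * A' := by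
    rw [H42.irr_one_eq]; exact_mod_cast hCA
  have hresA : ∀ {m : ℕ}, ¬ 2 ∣ m → res M (m : localRing M) = 1 := res_odd
  have h20 : (2 : ResField M) = 0 := CharP.cast_eq_zero (ResField M) 2
  -- proportional values on regular elements
  obtain ⟨φ, d, -, -, hd, -⟩ := H40.exists_rank_one_data hM hB hl
  have hprop : ∀ χ ∈ B, ∀ g : G, ¬ 2 ∣ orderOf g →
      (χ : G → ℂ) g = (χ : G → ℂ) 1 / (χ0 : G → ℂ) 1 * (χ0 : G → ℂ) g := by
    intro χ hχ g hg
    have h1 : ¬ 2 ∣ orderOf (1 : G) := by simp
    rw [div_mul_eq_mul_div, eq_div_iff (H26.irr_one_ne_zero χ0), hd χ hχ g hg, hd χ0 hχ0 1 h1,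
      hd χ hχ 1 h1, hd χ0 hχ0 g hg]
    ring
  -- the central element of the section
  obtain ⟨Z, hZ⟩ := exists_sectionSum (M := M) σ hσ ψ
  have hv : ∀ χ ∈ B, H41.omega χ (H41.incl M Z) =
      (Nat.card G : ℂ) * D χ / (8 * (χ : G → ℂ) 1) := fun χ hχ => by
    rw [hZ, hsum χ hχ]
    have := (Nat.cast_ne_zero (R := ℂ)).2 (Nat.card_pos (α := CZ σ)).ne'
    field_simp
  have hbar : ∀ χ ∈ B, H41.omegaBar M χ (H41.redZ M Z) = 0 := by
    intro χ hχ
    rw [H41.omegaBar_eq_of_mem hB hχ hχ0]
    show H41.omegaBarHom M χ0 (H41.redZ M Z) = 0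
    rw [H41.omegaBarHom_redZ]
    let Dl : localRing M := ⟨D χ0, H41.isIntegral_mem_localRing (hint χ0 hχ0)⟩
    have he : H41.omegaLoc M χ0 Z * (Bn : localRing M) =
        ((2 : ℕ) : localRing M) * ((A : localRing M) * Dl) := by
      apply Subtype.ext
      push_cast [Dl]
      rw [show ((2 : localRing M) : ℂ) = 2 from rfl, H41.coe_omegaLoc, hv χ0 hχ0, div_mul_eq_mul_div, div_eq_iff
        (mul_ne_zero (by norm_num) (H26.irr_one_ne_zero χ0))]
      linear_combination D χ0 * hGA'
    have h' := congrArg (res M) he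
    rw [map_mul, map_mul, hresA hBn, mul_one, map_natCast, Nat.cast_ofNat, h20, zero_mul] at h'
    exact h'
  set y := Z * Z * H41.locIdem hB with hy
  have hyω : ∀ χ : IrrCharacter G, H41.omega χ (H41.incl M y) =
      if χ ∈ B then ((Nat.card G : ℂ) * D χ / (8 * (χ : G → ℂ) 1)) ^ 2 else 0 := fun χ => by
    rw [hy, map_mul, map_mul, H41.incl_locIdem, map_mul, map_mul, H41.omega_blockIdem]
    by_cases hχ : χ ∈ B
    · rw [if_pos hχ, if_pos hχ, hv χ hχ, mul_one, sq]
    · rw [if_neg hχ, if_neg hχ, mul_zero]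
  -- some value of the square differs on the section
  obtain ⟨t, htR, htne⟩ : ∃ t ∈ R,
      res M ((y : MonoidAlgebra (localRing M) G).coeff (σ * (t : G))) ≠
        res M ((y : MonoidAlgebra (localRing M) G).coeff (t : G)) := by
    by_contra! hall
    let cf : CZ σ → localRing M := fun t => if t ∈ R then
      (y : MonoidAlgebra (localRing M) G).coeff (σ * (t : G)) -
        (y : MonoidAlgebra (localRing M) G).coeff (t : G) else 0
    let df : CZ σ → localRing M := fun t => if t ∈ R then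
      ⟨conj ((χ0 : G → ℂ) t), H41.isIntegral_mem_localRing
        ((H43.irr_isIntegral χ0 _).map (starRingEnd ℂ).toIntAlgHom)⟩ else 0
    have hRc : ∀ t k : CZ σ, k * t * k⁻¹ ∈ R ↔ t ∈ R := fun t k => by
      simp only [hR, Finset.mem_filter, Finset.mem_univ, true_and]
      unfold IsPRegular
      rw [← MulAut.conj_apply, MulEquiv.orderOf_eq]
    have hcf : ∀ t k : CZ σ, cf (k * t * k⁻¹) = cf t := by
      intro t k
      simp only [cf, hRc]
      have h1 := H40.mem_center_iff_coeff.1 y.2 (σ * (t : G)) k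
      have h2' := H40.mem_center_iff_coeff.1 y.2 (t : G) k
      push_cast
      rw [h2', show σ * ((k : G) * (t : G) * (k : G)⁻¹) = (k : G) * (σ * (t : G)) * (k : G)⁻¹ by
        rw [← mul_assoc, ← mul_assoc, H22.comm_of_mem_CZ k.2]; group, h1]
    have hdf : ∀ t k : CZ σ, df (k * t * k⁻¹) = df t := by
      intro t k
      simp only [df, hRc]
      split_ifs with h
      · exact Subtype.ext (congrArg (starRingEnd ℂ) (by push_cast; exact H26.irr_conj χ0 _ _))
      · rfl
    set S := H41.omegaLoc M ψ (H41.centerOfFun cf hcf) with hS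
    set F := H41.omegaLoc M ψ (H41.centerOfFun df hdf) with hF
    have hSres : res M S = 0 := by
      refine H41.ker_redZ_le M ψ (RingHom.mem_ker.2 (Subtype.ext (H40.ext_coeff fun u => ?_)))
      rw [H41.coeff_redZ, H41.coeff_centerOfFun]
      by_cases hu : u ∈ R
      · simp [cf, if_pos hu, hall u hu]
      · simp [cf, if_neg hu]
    have hSv : (S : ℂ) * (ψ : CZ σ → ℂ) 1 = ∑ u ∈ R,
        ((((y : MonoidAlgebra (localRing M) G).coeff (σ * (u : G)) : localRing M) : ℂ) -
          (((y : MonoidAlgebra (localRing M) G).coeff (u : G) : localRing M) : ℂ)) *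
          (ψ : CZ σ → ℂ) u := by
      rw [hS, H41.coe_omegaLoc, H41.omega_apply, div_mul_cancel₀ _ (H26.irr_one_ne_zero ψ),
        ← Finset.sum_subset (Finset.subset_univ R) fun u _ hu => ?_]
      · refine Finset.sum_congr rfl fun u hu => ?_
        simp [cf, if_pos hu]
      · simp [cf, if_neg hu]
    have hFv : (F : ℂ) * (ψ : CZ σ → ℂ) 1 =
        ∑ u ∈ R, conj ((χ0 : G → ℂ) u) * (ψ : CZ σ → ℂ) u := by
      rw [hF, H41.coe_omegaLoc, H41.omega_apply, div_mul_cancel₀ _ (H26.irr_one_ne_zero ψ),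
        ← Finset.sum_subset (Finset.subset_univ R) fun u _ hu => ?_]
      · refine Finset.sum_congr rfl fun u hu => ?_
        simp [df, if_pos hu]
      · simp [df, if_neg hu]
    set P : ℂ := ∑ u ∈ R, conj ((χ0 : G → ℂ) u) * (ψ : CZ σ → ℂ) u with hP
    set T : ℂ := ∑ χ ∈ H42.blockFinset B, (χ0 : G → ℂ) 1 / (χ : G → ℂ) 1 * D χ ^ 3 with hT
    have hN : (S : ℂ) * (ψ : CZ σ → ℂ) 1 =
        (Nat.card G : ℂ) * Nat.card (CZ σ) / (512 * (χ0 : G → ℂ) 1) * T -
          (Nat.card G : ℂ) / (8 * (χ0 : G → ℂ) 1) * P := by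
      have hcoef : ∀ g : G, (((y : MonoidAlgebra (localRing M) G).coeff g : localRing M) : ℂ) =
          ∑ χ ∈ H42.blockFinset B, (Nat.card G : ℂ) * D χ ^ 2 / (64 * (χ : G → ℂ) 1) *
            conj ((χ : G → ℂ) g) := by
        intro g
        rw [← H41.coeff_incl, coeff_eq_sum_omega, Finset.mul_sum,
          ← Finset.sum_subset (Finset.subset_univ (H42.blockFinset B)) fun χ _ hχ => ?_]
        · refine Finset.sum_congr rfl fun χ hχ => ?_
          rw [hyω, if_pos (H42.mem_blockFinset.1 hχ)]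
          have := (Nat.cast_ne_zero (R := ℂ)).2 (Nat.card_pos (α := G)).ne'
          have := H26.irr_one_ne_zero χ
          field_simp
          ring
        · rw [hyω, if_neg fun h => hχ (H42.mem_blockFinset.2 h)]
          simp
      rw [hSv]
      simp only [hcoef, ← Finset.sum_sub_distrib, Finset.sum_mul]
      rw [Finset.sum_comm]
      have hterm : ∀ χ ∈ H42.blockFinset B,
          ∑ u ∈ R, ((Nat.card G : ℂ) * D χ ^ 2 / (64 * (χ : G → ℂ) 1) *
              conj ((χ : G → ℂ) (σ * (u : G))) -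
            (Nat.card G : ℂ) * D χ ^ 2 / (64 * (χ : G → ℂ) 1) * conj ((χ : G → ℂ) (u : G))) *
              (ψ : CZ σ → ℂ) u =
            (Nat.card G : ℂ) * Nat.card (CZ σ) / (512 * (χ0 : G → ℂ) 1) *
              ((χ0 : G → ℂ) 1 / (χ : G → ℂ) 1 * D χ ^ 3) -
            (Nat.card G : ℂ) / (64 * (χ0 : G → ℂ) 1) * P * D χ ^ 2 := by
        intro χ hχ
        have hχB := H42.mem_blockFinset.1 hχ
        have e1 : ∑ u ∈ R, conj ((χ : G → ℂ) (σ * (u : G))) * (ψ : CZ σ → ℂ) u =
            (Nat.card (CZ σ) : ℂ) / 8 * D χ := by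
          have h := congrArg (starRingEnd ℂ) (hsum χ hχB)
          simp only [map_sum, map_mul, map_div₀, map_natCast, map_ofNat, Complex.conj_conj,
            hreal χ hχB] at h
          exact h
        have e2 : ∑ u ∈ R, conj ((χ : G → ℂ) (u : G)) * (ψ : CZ σ → ℂ) u =
            (χ : G → ℂ) 1 / (χ0 : G → ℂ) 1 * P := by
          rw [hP, Finset.mul_sum]
          refine Finset.sum_congr rfl fun u hu => ?_
          rw [hprop χ hχB u (by
            rw [Subgroup.orderOf_coe]; exact (Finset.mem_filter.1 hu).2), map_mul, map_div₀,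
            H42.irr_one_eq, H42.irr_one_eq, Complex.conj_natCast, Complex.conj_natCast]
          ring
        simp only [sub_mul, Finset.sum_sub_distrib, mul_assoc, ← Finset.mul_sum]
        rw [e1, e2]
        have := H26.irr_one_ne_zero χ
        have := H26.irr_one_ne_zero χ0
        field_simp
        ring
      rw [Finset.sum_congr rfl hterm, Finset.sum_sub_distrib, ← Finset.mul_sum, ← Finset.mul_sum,
        h2]
      ring
    have hkey : 3 * (Bn : ℂ) * B' * S + 6 * (A : ℂ) * B' * F = (A : ℂ) * A' * (3 * T) / 4 := by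
      refine mul_right_cancel₀ (H26.irr_one_ne_zero ψ) ?_
      rw [add_mul, mul_assoc (3 * (Bn : ℂ) * B'), hN, mul_assoc (6 * (A : ℂ) * B'), hFv]
      have := H26.irr_one_ne_zero χ0
      field_simp
      linear_combination
        ((Nat.card (CZ σ) : ℂ) * B' * T - 64 * B' * P) * 96 * hGA' +
        96 * 16 * (χ0 : G → ℂ) 1 * A * T * hCA'
    have hloc : ∃ s : localRing M, (s = 1 ∨ s = -1) ∧
        (((3 : ℕ) : localRing M) * (Bn : localRing M) * B' * S +
          ((6 : ℕ) : localRing M) * (A : localRing M) * B' * F) =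
          s * ((11 : ℕ) * (A : localRing M) * A') := by
      rcases h3 with h3 | h3
      · refine ⟨1, Or.inl rfl, Subtype.ext ?_⟩
        push_cast
        rw [show ((3 : localRing M) : ℂ) = 3 from rfl, show ((6 : localRing M) : ℂ) = 6 from rfl,
          show ((11 : localRing M) : ℂ) = 11 from rfl, hkey, h3]
        ring
      · refine ⟨-1, Or.inr rfl, Subtype.ext ?_⟩
        push_cast
        rw [show ((3 : localRing M) : ℂ) = 3 from rfl, show ((6 : localRing M) : ℂ) = 6 from rfl,
          show ((11 : localRing M) : ℂ) = 11 from rfl, hkey, h3]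
        ring
    obtain ⟨s, hs, he⟩ := hloc
    have h' := congrArg (res M) he
    have h6 : (6 : ResField M) = 0 := by
      rw [show (6 : ResField M) = 2 * 3 by norm_num, h20, zero_mul]
    have r6 : res M ((6 : ℕ) : localRing M) = 0 := by rw [map_natCast, Nat.cast_ofNat, h6]
    rw [map_add, map_mul, map_mul, map_mul, hSres, mul_zero, map_mul, map_mul, map_mul, r6,
      zero_mul, zero_mul, zero_mul, add_zero, map_mul, map_mul, map_mul,
      hresA (show ¬ 2 ∣ 11 by norm_num), hresA hA, hresA hA', mul_one, mul_one, mul_one] at h'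
    rcases hs with rfl | rfl <;> simp at h'
  -- the block algebra
  set ebZ : H41.groupAlgCenter (ResField M) G := H41.idemBar hB with hebZ
  set eb : MonoidAlgebra (ResField M) G := (ebZ : MonoidAlgebra (ResField M) G) with heb
  have hee : eb * eb = eb := congrArg Subtype.val (H41.isIdempotentElem_idemBar hB)
  have hec : ∀ a, a * eb = eb * a := fun a => Subalgebra.mem_center_iff.1 ebZ.2 a
  have heb0 : eb ≠ 0 := by
    intro h0
    obtain ⟨χ, hχ⟩ := H41.IsPBlock.nonempty hB
    have h := H41.omegaBar_idemBar_self hB hχ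
    rw [show H41.idemBar hB = 0 from Subtype.ext h0, map_zero] at h
    exact zero_ne_one h
  let I : Ideal (MonoidAlgebra (ResField M) G) :=
    { carrier := {a | a * eb = 0}
      add_mem' := fun {a b} ha hb => by
        simp only [Set.mem_ofPred_eq] at ha hb ⊢
        rw [add_mul, ha, hb, add_zero]
      zero_mem' := zero_mul _
      smul_mem' := fun c a ha => by
        simp only [Set.mem_ofPred_eq, smul_eq_mul] at ha ⊢
        rw [mul_assoc, ha, mul_zero] }
  have hIts : I.IsTwoSided := ⟨fun {a} b ha => by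
    show a * b * eb = 0
    rw [mul_assoc, hec b, ← mul_assoc, show a * eb = 0 from ha, zero_mul]⟩
  let mk : MonoidAlgebra (ResField M) G →ₐ[ResField M] MonoidAlgebra (ResField M) G ⧸ I :=
    Ideal.Quotient.mkₐ (ResField M) I
  have hmk : Function.Surjective mk := Ideal.Quotient.mkₐ_surjective _ _
  have : FiniteDimensional (ResField M) (MonoidAlgebra (ResField M) G ⧸ I) :=
    Module.Finite.of_surjective mk.toLinearMap hmk
  obtain ⟨Ψ, hΨ⟩ : ∃ Ψ : (MonoidAlgebra (ResField M) G ⧸ I) →ₗ[ResField M]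
      MonoidAlgebra (ResField M) G, ∀ a, Ψ (mk a) = a * eb :=
    ⟨(I.restrictScalars (ResField M)).liftQ (LinearMap.mulRight (ResField M) eb)
      (fun a ha => ha) ∘ₗ (Submodule.Quotient.restrictScalarsEquiv (ResField M) I).symm.toLinearMap,
      fun a => rfl⟩
  have hΨinj : Function.Injective Ψ := by
    rw [injective_iff_map_eq_zero]
    intro x hx
    obtain ⟨a, rfl⟩ := hmk x
    exact Ideal.Quotient.eq_zero_iff_mem.2 (show a * eb = 0 by rwa [hΨ] at hx)
  have hΨmul : ∀ x y, Ψ (x * y) = Ψ x * Ψ y := by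
    intro x y
    obtain ⟨a, rfl⟩ := hmk x
    obtain ⟨b, rfl⟩ := hmk y
    rw [← map_mul, hΨ, hΨ, hΨ]
    calc a * b * eb = a * (b * eb) * eb := by rw [mul_assoc a (b * eb), mul_assoc b, hee, mul_assoc]
      _ = _ := by rw [hec b, ← mul_assoc a eb b, mul_assoc (a * eb) b eb, ← hec b]
  have hrange : LinearMap.range Ψ = LinearMap.range (LinearMap.mulRight (ResField M) eb) := by
    refine le_antisymm ?_ ?_
    · rintro _ ⟨x, rfl⟩
      obtain ⟨a, rfl⟩ := hmk x
      exact ⟨a, (hΨ a).symm⟩
    · rintro _ ⟨a, rfl⟩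
      exact ⟨mk a, hΨ a⟩
  have : Nontrivial (MonoidAlgebra (ResField M) G ⧸ I) := by
    refine nontrivial_of_ne (mk 1) 0 fun h => heb0 ?_
    have h' := hΨ 1
    rw [h, map_zero, one_mul] at h'
    exact h'.symm
  let c1 : MonoidAlgebra (ResField M) G →ₗ[ResField M] ResField M :=
    { toFun := fun a => a.coeff 1
      map_add' := fun a b => by simp
      map_smul' := fun r a => by simp }
  have hsymc : ∀ a b : MonoidAlgebra (ResField M) G, c1 (a * b) = c1 (b * a) := by
    intro a b
    show (a * b).coeff 1 = (b * a).coeff 1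
    rw [H40.coeff_mul_eq_sum, H40.coeff_mul_eq_sum]
    refine Fintype.sum_equiv (Equiv.inv G) _ _ fun x => ?_
    simp [mul_comm]
  have hnd : ∀ x, (∀ y, (c1 ∘ₗ Ψ) (x * y) = 0) → x = 0 := by
    intro x hx
    obtain ⟨a, rfl⟩ := hmk x
    refine hΨinj ?_
    rw [hΨ, map_zero]
    refine H40.ext_coeff fun g => ?_
    have h := hx (mk (MonoidAlgebra.single g⁻¹ 1))
    rw [LinearMap.comp_apply, ← map_mul, hΨ, mul_assoc, hec, ← mul_assoc] at h
    have h' : (a * eb * MonoidAlgebra.single g⁻¹ 1).coeff 1 = 0 := h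
    simpa using h'
  have hsym : ∀ x y, (c1 ∘ₗ Ψ) (x * y) = (c1 ∘ₗ Ψ) (y * x) := fun x y => by
    rw [LinearMap.comp_apply, LinearMap.comp_apply, hΨmul, hΨmul, hsymc]
  have hcen : finrank (ResField M)
      (Subalgebra.center (ResField M) (MonoidAlgebra (ResField M) G ⧸ I)) ≤ Nat.card B := by
    have hS := finrank_center_le (M := M) hB
      ((Subalgebra.toSubmodule (Subalgebra.center (ResField M)
        (MonoidAlgebra (ResField M) G ⧸ I))).map Ψ) (by
        rintro _ ⟨x, hx, rfl⟩
        rw [SetLike.mem_coe, Subalgebra.mem_toSubmodule, Subalgebra.mem_center_iff] at hx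
        obtain ⟨a, rfl⟩ := hmk x
        rw [hΨ]
        refine ⟨Subalgebra.mem_center_iff.2 fun b => ?_, by rw [mul_assoc]; exact congrArg _ hee⟩
        have h := congrArg Ψ (hx (mk b))
        rw [← map_mul, ← map_mul, hΨ, hΨ] at h
        rw [← mul_assoc, h, mul_assoc, mul_assoc, hec b])
    rw [(Submodule.equivMapOfInjective Ψ hΨinj _).finrank_eq.symm] at hS
    exact hS
  have hcomm := (finrank_quot_comm_le (c1 ∘ₗ Ψ) hsym hnd).trans hcen
  set fZ : H41.groupAlgCenter (ResField M) G := H41.redZ M Z * ebZ with hfZ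
  have hfnil : IsNilpotent fZ :=
    H41.isNilpotent_mul_idemBar_of_omegaBar_eq_zero hB hχ0 (hbar χ0 hχ0)
  set f := mk (fZ : MonoidAlgebra (ResField M) G) with hf
  have hfc : ∀ a, f * a = a * f := fun a => by
    obtain ⟨a, rfl⟩ := hmk a
    rw [hf, ← map_mul, ← map_mul, Subalgebra.mem_center_iff.1 fZ.2 a]
  have hfn : IsNilpotent f :=
    (hfnil.map (H41.groupAlgCenter (ResField M) G).val).map mk
  have hY : (fZ : MonoidAlgebra (ResField M) G) * fZ * eb = (H41.redZ M y :
      H41.groupAlgCenter (ResField M) G) := by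
    have h : fZ * fZ * ebZ = H41.redZ M y := by
      have hr : H41.redZ M (H41.locIdem hB) = ebZ := rfl
      rw [hy, map_mul, map_mul, hr, hfZ]
      have hee : ebZ * ebZ = ebZ := Subtype.ext hee
      calc H41.redZ M Z * ebZ * (H41.redZ M Z * ebZ) * ebZ
          = H41.redZ M Z * H41.redZ M Z * (ebZ * ebZ * ebZ) := by ring
        _ = _ := by rw [hee, hee]
    rw [← h]; rfl
  have hfa : ∃ a, IsNilpotent a ∧ (c1 ∘ₗ Ψ) (f * f * a) ≠ 0 := by
    set u : MonoidAlgebra (ResField M) G := MonoidAlgebra.single σ⁻¹ 1 - 1 with hu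
    have hun : IsNilpotent u := ⟨2 ^ j, by
      rw [hu, sub_pow_char_pow_of_commute 2 j (Commute.one_right _), one_pow,
        MonoidAlgebra.single_pow, one_pow, inv_pow, ← hσ, pow_orderOf_eq_one, inv_one,
        ← MonoidAlgebra.one_def, sub_self]⟩
    have hcomm : Commute (MonoidAlgebra.single ((t : G))⁻¹ (1 : ResField M)) u := by
      refine Commute.sub_right ?_ (Commute.one_right _)
      show _ * _ = _ * _
      rw [MonoidAlgebra.single_mul_single, MonoidAlgebra.single_mul_single, ← mul_inv_rev,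
        ← mul_inv_rev, H22.comm_of_mem_CZ t.2]
    refine ⟨mk (MonoidAlgebra.single ((t : G))⁻¹ 1 * u), (hcomm.isNilpotent_mul_left hun).map mk, ?_⟩
    rw [hf, ← map_mul, ← map_mul, LinearMap.comp_apply, hΨ, mul_assoc _ _ eb, hec, ← mul_assoc, hY,
      hu, mul_sub, mul_one, MonoidAlgebra.single_mul_single, mul_one, ← mul_inv_rev, mul_sub,
      map_sub]
    intro h
    apply htne
    have h' := sub_eq_zero.1 h
    have h'' : (((H41.redZ M y : H41.groupAlgCenter (ResField M) G) :
        MonoidAlgebra (ResField M) G) * MonoidAlgebra.single (σ * (t : G))⁻¹ 1).coeff 1 =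
      (((H41.redZ M y : H41.groupAlgCenter (ResField M) G) :
        MonoidAlgebra (ResField M) G) * MonoidAlgebra.single ((t : G))⁻¹ 1).coeff 1 := h'
    simpa using h''
  obtain ⟨n, c, e, hee', hdim, hc15, hcol⟩ := exists_basic_form h20 (c1 ∘ₗ Ψ) hsym hnd
    (hcomm.trans hk) (fun m dd hdd F hF => by
      refine (card_simple_quotients_le hM hB m dd hdd (F.comp mk) (hF.comp hmk) ?_).trans_eq hl
      have h : mk eb = 1 := hΨinj (by rw [hΨ, hee, ← map_one mk, hΨ, one_mul])
      show F (mk eb) = 1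
      rw [h, map_one]) f hfc hfn hfa
  set W := ∑ χ ∈ H42.blockFinset B, charDegree (χ : G → ℂ) ^ 2 with hWdef
  have hdimW : n ^ 2 * c = W := by
    rw [← hdim, (LinearEquiv.ofInjective Ψ hΨinj).finrank_eq, hrange]
    exact finrank_blockAlg hB
  -- the projective module
  have hf : Ψ e * Ψ e = Ψ e := by rw [← hΨmul, hee']
  have hcolG : finrank (ResField M) (LinearMap.range (LinearMap.mulRight (ResField M) (Ψ e))) =
      n * c := by
    have hmap : (LinearMap.range (LinearMap.mulRight (ResField M) e)).map Ψ =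
        LinearMap.range (LinearMap.mulRight (ResField M) (Ψ e)) := by
      refine le_antisymm ?_ ?_
      · rintro _ ⟨_, ⟨x, rfl⟩, rfl⟩
        exact ⟨Ψ x, by simp [hΨmul]⟩
      · rintro _ ⟨a, rfl⟩
        refine ⟨mk a * e, ⟨mk a, rfl⟩, ?_⟩
        rw [hΨmul, hΨ, LinearMap.mulRight_apply, mul_assoc]
        congr 1
        obtain ⟨b, rfl⟩ := hmk e
        rw [hΨ, ← mul_assoc, ← hec b, mul_assoc, hee]
    rw [← hmap, ← (Submodule.equivMapOfInjective Ψ hΨinj _).finrank_eq, hcol]
  obtain ⟨P⟩ : Nonempty (Sylow 2 G) := inferInstance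
  have hdvd := card_dvd_finrank_range P.isPGroup' (Ψ e) hf
  rw [hcolG, P.card_eq_multiplicity] at hdvd
  have hfac := H42.factorization_sum_sq_degree hM hB
  rw [← hWdef, ← hdimW] at hfac
  have hW0 : n ^ 2 * c ≠ 0 := by
    intro h
    obtain ⟨χ, hχ⟩ := H41.IsPBlock.nonempty hB
    have h' := Finset.single_le_sum (f := fun χ : IrrCharacter G => charDegree (χ : G → ℂ) ^ 2)
      (fun _ _ => Nat.zero_le _) (H42.mem_blockFinset.2 hχ)
    rw [← hWdef, ← hdimW, h] at h'
    exact (pow_ne_zero 2 (H42.charDegree_pos χ).ne') (Nat.le_zero.1 h')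
  obtain ⟨hn0, hc0⟩ : n ≠ 0 ∧ c ≠ 0 := by
    refine ⟨fun h => hW0 (by simp [h]), fun h => hW0 (by simp [h])⟩
  rw [Nat.factorization_mul (pow_ne_zero _ hn0) hc0, Finsupp.add_apply, Nat.factorization_pow,
    Finsupp.smul_apply, smul_eq_mul] at hfac
  have hA := (Nat.prime_two.pow_dvd_iff_le_factorization (Nat.mul_ne_zero hn0 hc0)).1 hdvd
  rw [Nat.factorization_mul hn0 hc0, Finsupp.add_apply] at hA
  have hle : blockDefect 2 B ≤ (Nat.card G).factorization 2 := Nat.sub_le _ _
  have hlower : 2 ^ blockDefect 2 B ≤ c := Nat.le_of_dvd (Nat.pos_of_ne_zero hc0)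
    ((Nat.prime_two.pow_dvd_iff_le_factorization hc0).2 (by omega))
  rw [hdef] at hlower
  omega

end Cfsg.Agent.H40.Dihedral
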